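import Cfsg.Agent.H95.StemCover
import Cfsg.Agent.H911.Base5
import Cfsg.Agent.H915.LD

/-!
# Coverings by groups with the `p'`-part of the Schur multiplier (helper48)

* `exists_cover_pprime` : `G` perfect, `σ : G → T` onto with central kernel, the Schur multiplier of `T` has order
  `|ker σ| * p^a`; `P` perfect, `f : P → T` onto with central kernel of order prime to `p`: there is a homomorphism of
  `G` onto `P` over `T`.
-/

set_option autoImplicit false

namespace Cfsg.Agent.H48.CoverP

open Subgroup Cfsg.Agent.H95.StemCover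

universe u v w w'

/-- **Coverings of the perfect central `p'`-extensions.** -/
theorem exists_cover_pprime {T : Type u} [Group T] [Finite T] {A : Type v} [CommGroup A]
    (hA : Cfsg.HasSchurMultiplier T A) {G : Type w} [Group G] [Finite G] (hG : commutator G = ⊤) {σ : G →* T}
    (hσ : Function.Surjective σ) (hσc : σ.ker ≤ center G) {p a : ℕ} (hp : p.Prime)
    (hcard : Nat.card A = Nat.card σ.ker * p ^ a) {P : Type w'} [Group P] [Finite P] (hP : commutator P = ⊤)
    {π : P →* T} (hπ : Function.Surjective π) (hπc : π.ker ≤ center P) (hcop : (Nat.card π.ker).Coprime p) :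
    ∃ φ : G →* P, Function.Surjective φ ∧ ∀ x, π (φ x) = σ x := by
  have hT : commutator T = ⊤ := by
    have h1 : (commutator G).map σ = ⁅σ.range, σ.range⁆ := map_commutator_eq G σ
    rw [hG, ← MonoidHom.range_eq_map, MonoidHom.range_eq_top.2 hσ] at h1
    rw [commutator_def]; exact h1.symm
  have hσ' := isStem hG hσ hσc
  have hπ' := isStem hP hπ hπc
  refine exists_of_injective hT hσ' hπ' ?_
  have hst := stem_EE hT hσ hπ hσc hπc
  have hsurj := pΓ_surj (σ := σ) (π := π) hT hσ' hπ
  have hfin : Finite (EE σ π) := inferInstance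
  -- the order of the kernel of `EE → T`
  have h1 : Nat.card (σ.comp (pΓ σ π)).ker ∣ Nat.card A :=
    card_ker_dvd hA (commutator_EE hT hσ hπ hσc hπc) _ hst.1 hst.2.1
  have h2 : Nat.card (EE σ π) = Nat.card (σ.comp (pΓ σ π)).ker * Nat.card T := by
    rw [← card_mul_index (σ.comp (pΓ σ π)).ker, index_ker, MonoidHom.range_eq_top.2 hst.1, card_top]
  have h3 : Nat.card G = Nat.card σ.ker * Nat.card T := by
    rw [← card_mul_index σ.ker, index_ker, MonoidHom.range_eq_top.2 hσ, card_top]
  have h4 : Nat.card (EE σ π) = Nat.card (pΓ σ π).ker * Nat.card G := by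
    rw [← card_mul_index (pΓ σ π).ker, index_ker, MonoidHom.range_eq_top.2 hsurj, card_top]
  have hTpos : 0 < Nat.card T := Nat.card_pos
  have h5 : Nat.card (σ.comp (pΓ σ π)).ker = Nat.card (pΓ σ π).ker * Nat.card σ.ker := by
    apply Nat.eq_of_mul_eq_mul_right hTpos
    rw [← h2, h4, h3, mul_assoc]
  -- the kernel of `EE → G` embeds into the kernel of `π`
  have h6 : Nat.card (pΓ σ π).ker ∣ Nat.card π.ker := by
    let j : (pΓ σ π).ker →* π.ker :=
      { toFun := fun x => ⟨pP σ π x.1, by
          have e1 : pΓ σ π x.1 = 1 := x.2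
          rw [MonoidHom.mem_ker, ← comp_eq, e1, map_one]⟩
        map_one' := Subtype.ext (map_one (pP σ π))
        map_mul' := fun x y => Subtype.ext (map_mul (pP σ π) _ _) }
    refine Subgroup.card_dvd_of_injective j ?_
    rw [injective_iff_map_eq_one]
    intro x hx
    have e1 : pP σ π x.1 = 1 := congrArg Subtype.val hx
    have e2 : pΓ σ π x.1 = 1 := x.2
    apply Subtype.ext
    apply Subtype.ext
    exact Prod.ext e2 e1
  have h7 : Nat.card (pΓ σ π).ker ∣ p ^ a := by
    rw [h5, hcard, mul_comm (Nat.card σ.ker)] at h1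
    exact Nat.dvd_of_mul_dvd_mul_right Nat.card_pos h1
  have h8 : Nat.card (pΓ σ π).ker = 1 := by
    have h9 : (Nat.card (pΓ σ π).ker).Coprime (p ^ a) := (Nat.Coprime.coprime_dvd_left h6 hcop).pow_right a
    exact Nat.Coprime.eq_one_of_dvd h9 h7
  rw [← MonoidHom.ker_eq_bot_iff]
  exact Subgroup.card_eq_one.1 h8

section Core

open Cfsg.Agent.H915.LD Cfsg.Geo Matrix

variable {ι : Type} [Fintype ι] [DecidableEq ι] {F : Type u} [Field F] [Finite F] {P : Subgroup (GL ι F)}

/-- the number of scalars in `P` is prime to the characteristic -/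
theorem coprime_scalars (hne : Nonempty ι) (p : ℕ) [hp : Fact p.Prime] [CharP F p] :
    (Nat.card ((scalars ι F).subgroupOf P)).Coprime p := by
  rw [Nat.coprime_comm, Nat.Prime.coprime_iff_not_dvd hp.out]
  intro hdvd
  have : Finite ((scalars ι F).subgroupOf P) := inferInstance
  obtain ⟨z, hz⟩ := exists_prime_orderOf_dvd_card' p hdvd
  have hzc := z.2
  rw [Subgroup.mem_subgroupOf, mem_scalars_iff] at hzc
  obtain ⟨c, hc⟩ := hzc
  have h1 : ((z : P) : GL ι F) ^ p = 1 := by
    have h2 : (z : (scalars ι F).subgroupOf P) ^ p = 1 := by rw [← hz]; exact pow_orderOf_eq_one z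
    have h3 := congrArg (fun x : (scalars ι F).subgroupOf P => ((x : P) : GL ι F)) h2
    simpa using h3
  have h2 : (c : F) ^ p = 1 := by
    have h3 := congrArg (fun x : GL ι F => (x : Matrix ι ι F)) h1
    simp only [Units.val_pow_eq_pow_val, hc, Units.val_one, smul_pow, one_pow] at h3
    obtain ⟨i⟩ := hne
    have h4 := congrFun (congrFun h3 i) i
    simpa using h4
  have h3 : (c : F) = 1 := by
    have h4 : ((c : F) - 1) ^ p = 0 := by rw [sub_pow_char, h2, one_pow, sub_self]
    exact sub_eq_zero.1 (pow_eq_zero_iff hp.out.ne_zero |>.1 h4)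
  have h4 : z = 1 := by
    apply Subtype.ext
    apply Subtype.ext
    apply Units.ext
    rw [hc, h3, one_smul]
    rfl
  rw [h4, orderOf_one] at hz
  exact hp.out.one_lt.ne hz

/-- **A core is covered by a group with the `p'`-part of the multiplier.** -/
theorem exists_onto (hC : Core P) (p : ℕ) [hp : Fact p.Prime] [CharP F p]
    {T : Type v} [Group T] [Finite T] (e : Soc P ≃* T) {A : Type w} [CommGroup A]
    (hA : Cfsg.HasSchurMultiplier T A) {G : Type w'} [Group G] [Finite G] (hG : commutator G = ⊤) {σ : G →* T}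
    (hσ : Function.Surjective σ) (hσc : σ.ker ≤ center G) {a : ℕ} (hcard : Nat.card A = Nat.card σ.ker * p ^ a) :
    ∃ φ : G →* P, Function.Surjective φ ∧ ∀ x, e (toSoc P (φ x)) = σ x := by
  have hker := ker_comp e
  exact exists_cover_pprime hA hG hσ hσc hp.out hcard hC.commutator_top
    (e.surjective.comp (toSoc_surjective P)) (by rw [hker]; exact scalars_le_center)
    (by rw [hker]; exact coprime_scalars hC.nonempty p)

end Core

end Cfsg.Agent.H48.CoverP
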